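import Cfsg.Agent.Base
import Cfsg.Agent.Lib.Fact.Ito
import Cfsg.Agent.Lib.BG.Api.Hall
import Cfsg.Agent.Lib.BG.Api.Core

/-! Products of two abelian subgroups: a nontrivial normal subgroup inside a factor. -/

namespace H22

open Subgroup Cfsg H69 H45
open scoped commutatorElement

variable {G : Type*} [Group G]

theorem Fz.center_eq_bot_of_no_normal {A B H : Subgroup G} (h : Fz A B)
    (hB : IsMulCommutative B) (hno : ∀ N : Subgroup G, N.Normal → N ≤ A ∨ N ≤ B → N = ⊥)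
    (hA : IsMulCommutative A) (hH : H.Normal) (hAH : A ≤ H) : H ⊓ 𝐂(H) = ⊥ := by
  refine hno _ (normalIn_top_iff.1 ((center_charIn H).normalIn_trans (normalIn_top_iff.2 hH)))
    (Or.inl fun z hz => ?_)
  obtain ⟨a, ha, b, hb, rfl⟩ := h z
  have hbA : b ∈ 𝐂(A) := by
    have h1 : a * b ∈ 𝐂(A) := centralizer_anti hAH hz.2
    exact (𝐂(A).mul_mem_cancel_left (abelian_iff_le_centralizer.1 hA ha)).1 h1
  have hbZ : b ∈ center G := by
    rw [← centralizer_top, ← h.sup_eq_top, centralizer_sup]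
    exact ⟨hbA, abelian_iff_le_centralizer.1 hB hb⟩
  have : zpowers b = ⊥ := hno _ (normalIn_top_iff.1 (normalIn_of_le_centralizer le_top (by rw [centralizer_top]; exact zpowers_le.2 hbZ))) (Or.inr (zpowers_le.2 hb))
  rw [zpowers_eq_bot] at this
  rwa [this, mul_one]

theorem Fz.exists_normal_le_of_comm [Finite G] [Nontrivial G] {A B : Subgroup G} (h : Fz A B)
    (hA : IsMulCommutative A) (hB : IsMulCommutative B) :
    ∃ N : Subgroup G, N.Normal ∧ N ≠ ⊥ ∧ (N ≤ A ∨ N ≤ B) := by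
  by_contra hno
  have hno : ∀ N : Subgroup G, N.Normal → N ≤ A ∨ N ≤ B → N = ⊥ := fun N h1 h2 => by
    by_contra h3; exact hno ⟨N, h1, h3, h2⟩
  set K := _root_.commutator G with hK
  have hKc : IsMulCommutative K := h.isMulCommutative_commutator hA hB
  have hnorm : ∀ L : Subgroup G, K ≤ L → L.Normal := fun L hL =>
    normalIn_top_iff.1 (normalIn_of_der_le hL le_top)
  have hK1 : K ≠ ⊥ := by
    intro e
    have h1 := hno A (hnorm A (e ▸ bot_le)) (Or.inl le_rfl)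
    have h2 := hno B (hnorm B (e ▸ bot_le)) (Or.inr le_rfl)
    have := h.sup_eq_top
    rw [h1, h2, bot_sup_eq] at this
    exact bot_ne_top this
  obtain ⟨p, hp, hKp⟩ := exists_pcore_ne_bot (solvable_of_abelian hKc) hK1
  have := Fact.mk hp
  have hKn : K ⊴ ⊤ := normalIn_top_iff.2 inferInstance
  have hPn : (O[{p}] K) ⊴ ⊤ := pcore_normal_trans _ hKn
  have hQn : (O[{p}ᶜ] K) ⊴ ⊤ := pcore_normal_trans _ hKn
  have hD := nilpotent_pcoreC {p} (abelian_nil hKc)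
  set P := O[{p}] K
  set Q := O[{p}ᶜ] K
  set B₁ := B ⊓ (A ⊔ K) with hB₁
  have hAB : MulEq A B ⊤ := ⟨le_top, le_top, fun g _ => h g⟩
  have hH : MulEq A B₁ (A ⊔ K) := hAB.modl' le_sup_left le_top
  -- the part of `B₁` inside `A Q` centralizes `P`
  have hU : (A ⊔ Q) ⊓ B₁ ≤ 𝐂(P) := by
    rintro b ⟨hb, hbB, -⟩ y hy
    obtain ⟨a, ha, k, hk, e⟩ := (mem_sup_of_le_normalizer_right (le_top.trans hQn.norm)).1 hb
    obtain ⟨a', ha', b', hb', rfl⟩ := h y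
    have h1 : (a' * b') * (b * (a' * b')⁻¹ * b⁻¹) ∈ P :=
      P.mul_mem hy (hPn.conj_mem (mem_top b) (P.inv_mem hy))
    have h2 : (a' * b') * (b * (a' * b')⁻¹ * b⁻¹) ∈ Q := by
      have e1 : b' * b = b * b' := mul_comm_of_mem hB hb' hbB
      have e2 : a' * a = a * a' := mul_comm_of_mem hA ha' ha
      have : (a' * b') * (b * (a' * b')⁻¹ * b⁻¹) = a * ((a' * k * a'⁻¹) * k⁻¹) * a⁻¹ := by
        calc (a' * b') * (b * (a' * b')⁻¹ * b⁻¹) = a' * (b' * b) * b'⁻¹ * a'⁻¹ * b⁻¹ := by group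
          _ = a' * b * a'⁻¹ * b⁻¹ := by rw [e1]; group
          _ = (a' * a) * k * a'⁻¹ * k⁻¹ * a⁻¹ := by rw [e]; group
          _ = a * ((a' * k * a'⁻¹) * k⁻¹) * a⁻¹ := by rw [e2]; group
      rw [this]
      exact hQn.conj_mem (mem_top a) (Q.mul_mem (hQn.conj_mem (mem_top a') hk) (Q.inv_mem hk))
    have h3 := hD.inf_eq.le (mem_inf.2 ⟨h1, h2⟩)
    rw [mem_bot] at h3
    calc a' * b' * b = ((a' * b') * (b * (a' * b')⁻¹ * b⁻¹)) * (b * (a' * b')) := by group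
      _ = b * (a' * b') := by rw [h3, one_mul]
  obtain ⟨S, hS⟩ := Sylow_exists p B₁
  have hle : A ⊔ Q ≤ A ⊔ K := sup_le_sup_left hD.le_right A
  have hi : ((A ⊔ Q) ⊓ B₁).relIndex B₁ ∣ Nat.card P := by
    have h1 : MulEq (A ⊔ Q) B₁ (A ⊔ K) := hH.mono le_sup_left hle le_rfl inf_le_right
    have h2 : MulEq (A ⊔ Q) P (A ⊔ K) := by
      have := mulEq_of_norm' (A := A ⊔ Q) (B := P) (le_top.trans hPn.norm)
      rwa [sup_assoc, sup_comm Q, hD.sup_eq] at this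
    rw [inf_relIndex_right, ← h1.relIndex_left, h2.relIndex_left]
    exact relIndex_dvd_card _ _
  have hmul : MulEq ((A ⊔ Q) ⊓ B₁) S B₁ := mulEq_of_coprime_relIndex inf_le_right hS.le
    (Nat.Coprime.coprime_dvd_left hi
      (coprime_of_isPGroup_of_not_dvd hp (pcore_isPGroup p K) hS.not_dvd_relIndex))
  obtain ⟨k, hk, hk1⟩ := (Subgroup.ne_bot_iff_exists_ne_one).1
    (inf_centralizer_ne_bot (pcore_isPGroup p K) hS.isP (le_top.trans hPn.norm) hKp) |>.imp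
    (fun _ => id) |> fun ⟨k, hk⟩ => (⟨k, k.2, fun e => hk (Subtype.ext e)⟩ :
      ∃ k : G, k ∈ P ⊓ 𝐂(S) ∧ k ≠ 1)
  have hkB : k ∈ 𝐂(B₁) := by
    rw [← hmul.sup_eq, centralizer_sup]
    exact ⟨centsC.1 hU hk.1, hk.2⟩
  have hkK : k ∈ K := hD.le_left hk.1
  obtain ⟨a, ha, b, hb, rfl⟩ := hH.exists_mul (mem_sup_right hkK)
  have haZ : a ∈ (A ⊔ K) ⊓ 𝐂(A ⊔ K) := by
    refine ⟨mem_sup_left ha, ?_⟩
    change a ∈ 𝐂(A ⊔ K)
    rw [← hH.sup_eq, centralizer_sup]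
    exact ⟨abelian_iff_le_centralizer.1 hA ha, (𝐂(B₁).mul_mem_cancel_right
      (sub_abelian_cent2 hB inf_le_left inf_le_left hb)).1 hkB⟩
  rw [h.center_eq_bot_of_no_normal hB hno hA (hnorm _ le_sup_right) le_sup_left, mem_bot] at haZ
  subst haZ
  rw [one_mul] at hk1 hkK
  have hbZ : b ∈ (B ⊔ K) ⊓ 𝐂(B ⊔ K) := by
    refine ⟨mem_sup_left hb.1, ?_⟩
    change b ∈ 𝐂(B ⊔ K)
    rw [centralizer_sup]
    exact ⟨abelian_iff_le_centralizer.1 hB hb.1, abelian_iff_le_centralizer.1 hKc hkK⟩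
  rw [h.symm.center_eq_bot_of_no_normal hA (fun N h1 h2 => hno N h1 h2.symm) hB
    (hnorm _ le_sup_right) le_sup_left, mem_bot] at hbZ
  exact hk1 hbZ

end H22
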